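-- Team project OPARM (S5991), cut of [UNIME], package [UEL] (helper13): in a nondegenerate
-- subspace of dimension `2 j + 1`, two anisotropic vectors each orthogonal to a totally singular
-- `j`-subspace have `Q`-values in the same square class.  Witt's lemma (S0750) inside `W`.
import Mathlib
import Cfsg.Agent.S0750
import Cfsg.Agent.Lib.Helper61.OEll.CntM
import Cfsg.Agent.Lib.Helper64.OParM.UEDefs

set_option autoImplicit false
open scoped MatrixGroups
open Matrix

namespace Cfsg.Agent.Lib.Helper13.OParM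

open Cfsg.Agent.Lib.Helper23.OHyp Cfsg.Agent.Lib.Helper64.OParM

universe u

/-- [UEL] -/
theorem pkgUEL : PkgUEL.{u} := by
  intro F _ _ ι _ _ Q hQ h2 W hNd w₁ w₂ hw₁ hw₂ hq₁ hq₂ U₁ U₂ hU₁ hU₂ hs₁ hs₂ ho₁ ho₂ hf₁ hf₂
  classical
  have hbil := hQ.polar_bilinear
  have hsymm : ∀ a b : ι → F, QuadraticMap.polar Q a b = QuadraticMap.polar Q b a :=
    fun a b => QuadraticMap.polar_comm Q a b
  -- the quadratic form on `W`
  obtain ⟨QW, hQW⟩ : ∃ QW : QuadraticForm F W, ∀ v : W, QW v = Q (v : ι → F) :=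
    ⟨(Cfsg.Agent.Lib.Helper61.OEll.toQF Q hQ).comp W.subtype, fun v => rfl⟩
  have hpol : ∀ u v : W, QuadraticMap.polarBilin QW u v
      = QuadraticMap.polar Q (u : ι → F) (v : ι → F) := by
    intro u v
    rw [QuadraticMap.polarBilin_apply_apply]
    simp only [QuadraticMap.polar]
    rw [hQW, hQW, hQW]
    rfl
  have hnd : (QuadraticMap.polarBilin QW).Nondegenerate := by
    constructor
    · intro v hv
      by_contra hv0
      have hv0' : (v : ι → F) ≠ 0 := fun h => hv0 (Subtype.ext h)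
      obtain ⟨-, ⟨y, hy, hy'⟩⟩ := hNd _ v.2 hv0'
      have h1 := hv ⟨y, hy⟩
      rw [hpol] at h1
      exact hy' h1
    · intro v hv
      by_contra hv0
      have hv0' : (v : ι → F) ≠ 0 := fun h => hv0 (Subtype.ext h)
      obtain ⟨⟨y, hy, hy'⟩, -⟩ := hNd _ v.2 hv0'
      have h1 := hv ⟨y, hy⟩
      rw [hpol] at h1
      exact hy' h1
  -- the two totally singular subspaces inside `W`
  set X : Submodule F W := U₁.comap W.subtype with hX
  set Y : Submodule F W := U₂.comap W.subtype with hY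
  have hfX : Module.finrank F X = Module.finrank F U₁ := by
    rw [← Submodule.finrank_map_subtype_eq W X, hX, Submodule.map_comap_subtype,
      inf_eq_right.mpr hU₁]
  have hfY : Module.finrank F Y = Module.finrank F U₂ := by
    rw [← Submodule.finrank_map_subtype_eq W Y, hY, Submodule.map_comap_subtype,
      inf_eq_right.mpr hU₂]
  have hXY : Module.finrank F X = Module.finrank F Y := by omega
  have hXmem : ∀ x : W, x ∈ X → (x : ι → F) ∈ U₁ := fun x hx => hx
  have hYmem : ∀ y : W, y ∈ Y → (y : ι → F) ∈ U₂ := fun y hy => hy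
  have hfreeX : Module.Free F X := Module.Free.of_divisionRing F X
  have hfreeY : Module.Free F Y := Module.Free.of_divisionRing F Y
  obtain ⟨φ⟩ : Nonempty (X ≃ₗ[F] Y) := ⟨LinearEquiv.ofFinrankEq X Y hXY⟩
  have hφ : ∀ x : X, QW ((φ x : Y) : W) = QW (x : W) := by
    intro x
    rw [hQW, hQW, hs₁ _ (hXmem _ x.2), hs₂ _ (hYmem _ (φ x).2)]
  obtain ⟨g, hg, hgφ⟩ := Cfsg.Agent.S0750.result QW hnd X Y φ hφ
  have hgpol : ∀ a b : W, QuadraticMap.polar Q ((g a : W) : ι → F) ((g b : W) : ι → F)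
      = QuadraticMap.polar Q (a : ι → F) (b : ι → F) := by
    intro a b
    have h1 := hg (a + b)
    have h2' := hg a
    have h3 := hg b
    rw [hQW, hQW] at h1 h2' h3
    simp only [QuadraticMap.polar]
    rw [map_add] at h1
    rw [← Submodule.coe_add, h1, h2', h3]
    rfl
  -- the image of `w₁`
  set v : W := g ⟨w₁, hw₁⟩ with hv
  have hvQ : Q (v : ι → F) = Q w₁ := by
    have h1 := hg ⟨w₁, hw₁⟩
    rw [hQW, hQW] at h1
    exact h1
  have hvorth : v ∈ LinearMap.BilinForm.orthogonal (QuadraticMap.polarBilin QW) Y := by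
    rw [LinearMap.BilinForm.mem_orthogonal_iff]
    intro y hy
    rw [hpol]
    have h1 : ((φ (φ.symm ⟨y, hy⟩) : Y) : W) = y := by rw [LinearEquiv.apply_symm_apply]
    have h3 := hgφ (φ.symm ⟨y, hy⟩)
    rw [h1] at h3
    rw [← h3, hv, hgpol]
    exact ho₁ _ (hXmem _ (φ.symm ⟨y, hy⟩ : X).2)
  -- the orthogonal of `Y` in `W` is `Y ⊕ F w₂`
  have hw2Y : (⟨w₂, hw₂⟩ : W) ∉ Y := by
    intro h
    exact hq₂ (hs₂ _ (hYmem _ h))
  have hle : Y ⊔ Submodule.span F {(⟨w₂, hw₂⟩ : W)}
      ≤ LinearMap.BilinForm.orthogonal (QuadraticMap.polarBilin QW) Y := by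
    apply sup_le
    · intro y hy
      rw [LinearMap.BilinForm.mem_orthogonal_iff]
      intro y' hy'
      rw [hpol]
      have h1 : Q ((y' : ι → F) + (y : ι → F)) = 0 :=
        hs₂ _ (U₂.add_mem (hYmem _ hy') (hYmem _ hy))
      simp only [QuadraticMap.polar]
      rw [h1, hs₂ _ (hYmem _ hy'), hs₂ _ (hYmem _ hy)]
      ring
    · rw [Submodule.span_le]
      intro z hz
      rw [Set.mem_singleton_iff] at hz
      rw [hz]
      show (⟨w₂, hw₂⟩ : W) ∈ LinearMap.BilinForm.orthogonal (QuadraticMap.polarBilin QW) Y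
      rw [LinearMap.BilinForm.mem_orthogonal_iff]
      intro y' hy'
      rw [hpol]
      exact ho₂ _ (hYmem _ hy')
  have hdisj : Disjoint Y (Submodule.span F {(⟨w₂, hw₂⟩ : W)}) := by
    rw [Submodule.disjoint_span_singleton']
    · exact hw2Y
    · intro h0
      apply hw2Y
      rw [h0]
      exact Y.zero_mem
  have hfsup : Module.finrank F ↥(Y ⊔ Submodule.span F {(⟨w₂, hw₂⟩ : W)})
      = Module.finrank F Y + 1 := by
    have h1 := Submodule.finrank_sup_add_finrank_inf_eq Y (Submodule.span F {(⟨w₂, hw₂⟩ : W)})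
    rw [disjoint_iff.mp hdisj, finrank_bot, add_zero] at h1
    rw [h1, finrank_span_singleton]
    intro h0
    apply hw2Y
    rw [h0]
    exact Y.zero_mem
  have hforth := LinearMap.BilinForm.finrank_orthogonal hnd Y
  have heq : Y ⊔ Submodule.span F {(⟨w₂, hw₂⟩ : W)}
      = LinearMap.BilinForm.orthogonal (QuadraticMap.polarBilin QW) Y := by
    apply Submodule.eq_of_le_of_finrank_le hle
    omega
  rw [← heq, Submodule.mem_sup] at hvorth
  obtain ⟨y, hy, z, hz, hyz⟩ := hvorth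
  rw [Submodule.mem_span_singleton] at hz
  obtain ⟨c, rfl⟩ := hz
  refine ⟨c, ?_⟩
  rw [← hvQ, ← hyz]
  have h1 : ((y + c • (⟨w₂, hw₂⟩ : W) : W) : ι → F) = (y : ι → F) + c • w₂ := rfl
  rw [h1]
  have h3 : Q ((y : ι → F) + c • w₂) = Q (y : ι → F) + Q (c • w₂)
      + QuadraticMap.polar Q (y : ι → F) (c • w₂) := by
    simp only [QuadraticMap.polar]
    ring
  rw [h3, hs₂ _ (hYmem _ hy), hQ.smul, hbil.smul_right, ho₂ _ (hYmem _ hy)]
  ring

end Cfsg.Agent.Lib.Helper13.OParM
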